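import Mathlib

/-!
# The sixty degree theorem, in operator form

Let `ρ` be an isometric action of a finite group on a normed space such that every normal subgroup
acting commutatively acts by scalars. Then every element within distance less than `1/2` of a
scalar acts by a scalar.  The proof is a commutator contraction.
-/

set_option autoImplicit false

namespace Cfsg.Agent.Lib.Blichfeldt

variable {G : Type*} [Group G] {V : Type*} [NormedAddCommGroup V] [NormedSpace ℂ V]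

/-- `ρ g` is within `r` of the scalar `a`, as an operator. -/
def Near (ρ : G →* Module.End ℂ V) (g : G) (a : ℂ) (r : ℝ) : Prop :=
  ∀ v : V, ‖ρ g v - a • v‖ ≤ r * ‖v‖

/-- `ρ g` is a scalar. -/
def IsScal (ρ : G →* Module.End ℂ V) (g : G) : Prop :=
  ∃ c : ℂ, ∀ v : V, ρ g v = c • v

theorem rho_inv_apply (ρ : G →* Module.End ℂ V) (g : G) (v : V) : ρ g (ρ g⁻¹ v) = v := by
  have : ρ g * ρ g⁻¹ = 1 := by rw [← map_mul, mul_inv_cancel, map_one]
  exact congrArg (fun f : Module.End ℂ V => f v) this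

theorem rho_inv_apply' (ρ : G →* Module.End ℂ V) (g : G) (v : V) : ρ g⁻¹ (ρ g v) = v := by
  have : ρ g⁻¹ * ρ g = 1 := by rw [← map_mul, inv_mul_cancel, map_one]
  exact congrArg (fun f : Module.End ℂ V => f v) this

theorem rho_mul_apply (ρ : G →* Module.End ℂ V) (g h : G) (v : V) : ρ (g * h) v = ρ g (ρ h v) := by
  rw [map_mul]; rfl

theorem near_conj {ρ : G →* Module.End ℂ V} (hiso : ∀ g v, ‖ρ g v‖ = ‖v‖) {g : G} {a : ℂ} {r : ℝ}
    (h : Near ρ g a r) (u : G) : Near ρ (u * g * u⁻¹) a r := by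
  intro v
  have e : ρ (u * g * u⁻¹) v - a • v = ρ u (ρ g (ρ u⁻¹ v) - a • ρ u⁻¹ v) := by
    rw [map_sub, map_smul, rho_inv_apply, rho_mul_apply, rho_mul_apply]
  rw [e, hiso]
  have := h (ρ u⁻¹ v)
  rwa [hiso] at this

theorem near_comm {ρ : G →* Module.End ℂ V} (hiso : ∀ g v, ‖ρ g v‖ = ‖v‖) {x y : G} {a b : ℂ}
    {r s : ℝ} (hx : Near ρ x a r) (hy : Near ρ y b s) (hr : 0 ≤ r) (hs : 0 ≤ s) :
    Near ρ (x * y * x⁻¹ * y⁻¹) 1 (2 * r * s) := by
  intro v
  set w : V := ρ x⁻¹ (ρ y⁻¹ v) with hw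
  have hwn : ‖w‖ = ‖v‖ := by rw [hw, hiso, hiso]
  have hv : v = ρ y (ρ x w) := by rw [hw, rho_inv_apply, rho_inv_apply]
  have hxy : ρ (x * y * x⁻¹ * y⁻¹) v = ρ x (ρ y w) := by
    rw [rho_mul_apply, rho_mul_apply, rho_mul_apply, hw]
  set p : V := ρ y w - b • w with hp
  set q : V := ρ x w - a • w with hq
  have hpn : ‖p‖ ≤ s * ‖w‖ := hy w
  have hqn : ‖q‖ ≤ r * ‖w‖ := hx w
  have e : ρ (x * y * x⁻¹ * y⁻¹) v - (1 : ℂ) • v = (ρ x p - a • p) - (ρ y q - b • q) := by
    rw [hxy, one_smul]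
    conv_lhs => rw [hv]
    rw [hp, hq]
    simp only [map_sub, map_smul, smul_sub, smul_smul]
    rw [mul_comm a b]
    abel
  rw [e]
  calc ‖(ρ x p - a • p) - (ρ y q - b • q)‖
      ≤ ‖ρ x p - a • p‖ + ‖ρ y q - b • q‖ := norm_sub_le _ _
    _ ≤ r * ‖p‖ + s * ‖q‖ := add_le_add (hx p) (hy q)
    _ ≤ r * (s * ‖w‖) + s * (r * ‖w‖) :=
        add_le_add (mul_le_mul_of_nonneg_left hpn hr) (mul_le_mul_of_nonneg_left hqn hs)
    _ = 2 * r * s * ‖v‖ := by rw [hwn]; ring

/-- A scalar near an isometry has norm at least `1 - ε`. -/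
theorem near_lower {ρ : G →* Module.End ℂ V} (hiso : ∀ g v, ‖ρ g v‖ = ‖v‖) {g : G} {a : ℂ} {r : ℝ}
    (h : Near ρ g a r) {v : V} (hv : v ≠ 0) : 1 - r ≤ ‖a‖ := by
  have h1 := h v
  have h2 : ‖ρ g v‖ ≤ ‖ρ g v - a • v‖ + ‖a • v‖ := by
    have := norm_add_le (ρ g v - a • v) (a • v)
    simpa using this
  rw [hiso, norm_smul] at h2
  have hpos : 0 < ‖v‖ := norm_pos_iff.mpr hv
  have : 1 * ‖v‖ ≤ (r + ‖a‖) * ‖v‖ := by nlinarith
  have := le_of_mul_le_mul_right this hpos
  linarith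

/-- An element near a scalar with small constant cannot be rotated by a nontrivial root of unity. -/
theorem no_rotation {ρ : G →* Module.End ℂ V} (hiso : ∀ g v, ‖ρ g v‖ = ‖v‖) {w u : G} {a γ : ℂ}
    {ε : ℝ} (hε : ε < 1 / 2) (hw : Near ρ w a ε) (hv0 : ∃ v : V, v ≠ 0)
    (hrot : ∀ v, ρ (u * w * u⁻¹) v = γ • ρ w v) {m : ℕ} (hm : 0 < m) (hγ : γ ^ m = 1) : γ = 1 := by
  by_contra hne
  obtain ⟨v, hv⟩ := hv0
  have hk : ∀ k : ℕ, ∀ v, ρ (u ^ k * w * (u ^ k)⁻¹) v = γ ^ k • ρ w v := by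
    intro k
    induction k with
    | zero => intro v; simp
    | succ k ih =>
      intro v
      have e : u ^ (k + 1) * w * (u ^ (k + 1))⁻¹ = u * (u ^ k * w * (u ^ k)⁻¹) * u⁻¹ := by
        group
      rw [e, rho_mul_apply, rho_mul_apply, ih, map_smul]
      have := hrot v
      rw [rho_mul_apply, rho_mul_apply] at this
      rw [this, smul_smul, pow_succ]
  have hnear : ∀ k : ℕ, ‖γ ^ k • ρ w v - a • v‖ ≤ ε * ‖v‖ := by
    intro k
    have := near_conj hiso hw (u ^ k) v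
    rwa [hk] at this
  have hgeom : ∑ k ∈ Finset.range m, γ ^ k = 0 := by
    have h1 := geom_sum_mul γ m
    rw [hγ, sub_self] at h1
    exact (mul_eq_zero.mp h1).resolve_right (sub_ne_zero.mpr hne)
  have hsum : ∑ k ∈ Finset.range m, (γ ^ k • ρ w v - a • v) = -((m : ℂ) * a) • v := by
    rw [Finset.sum_sub_distrib, ← Finset.sum_smul, hgeom, zero_smul, Finset.sum_const,
      Finset.card_range, zero_sub, neg_smul, mul_smul, Nat.cast_smul_eq_nsmul]
  have hnorm : ‖-((m : ℂ) * a) • v‖ ≤ m * (ε * ‖v‖) := by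
    rw [← hsum]
    calc _ ≤ ∑ k ∈ Finset.range m, ‖γ ^ k • ρ w v - a • v‖ := norm_sum_le _ _
      _ ≤ ∑ _k ∈ Finset.range m, ε * ‖v‖ := Finset.sum_le_sum fun k _ => hnear k
      _ = m * (ε * ‖v‖) := by simp
  rw [norm_smul, norm_neg, norm_mul, Complex.norm_natCast] at hnorm
  have hvpos : 0 < ‖v‖ := norm_pos_iff.mpr hv
  have hmpos : (0 : ℝ) < m := by exact_mod_cast hm
  have h1 : ‖a‖ ≤ ε := by
    have h2 : (m : ℝ) * ‖v‖ * ‖a‖ ≤ (m : ℝ) * ‖v‖ * ε := by nlinarith
    exact le_of_mul_le_mul_left h2 (mul_pos hmpos hvpos)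
  have h2 := near_lower hiso hw hv
  linarith

/-- Commuting on generators implies commuting on the generated subgroup. -/
theorem closure_commute (ρ : G →* Module.End ℂ V) {S : Set G}
    (hS : ∀ x ∈ S, ∀ y ∈ S, ρ x * ρ y = ρ y * ρ x) :
    ∀ x ∈ Subgroup.closure S, ∀ y ∈ Subgroup.closure S, ρ x * ρ y = ρ y * ρ x := by
  have hinv : ∀ x y : G, ρ x * ρ y = ρ y * ρ x → ρ x⁻¹ * ρ y = ρ y * ρ x⁻¹ := by
    intro x y h
    calc ρ x⁻¹ * ρ y = ρ x⁻¹ * (ρ y * (ρ x * ρ x⁻¹)) := by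
          rw [← map_mul ρ x x⁻¹, mul_inv_cancel, map_one, mul_one]
      _ = ρ x⁻¹ * (ρ x * ρ y) * ρ x⁻¹ := by rw [h]; simp only [mul_assoc]
      _ = ρ y * ρ x⁻¹ := by
          rw [← mul_assoc, ← map_mul ρ x⁻¹ x, inv_mul_cancel, map_one, one_mul]
  intro x hx y hy
  induction hx, hy using Subgroup.closure_induction₂ with
  | mem x y hx hy => exact hS x hx y hy
  | one_left y _ => simp
  | one_right x _ => simp
  | mul_left x y z _ _ _ h1 h2 =>
    rw [map_mul, mul_assoc, h2, ← mul_assoc, h1, mul_assoc]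
  | mul_right x y z _ _ _ h1 h2 =>
    rw [map_mul, ← mul_assoc, h1, mul_assoc, h2, mul_assoc]
  | inv_left x y _ _ h => exact hinv x y h
  | inv_right x y _ _ h => exact (hinv y x h.symm).symm

/-- The descending step: if everything near `1` with constant `2 ε ^ 2` is a scalar, then
everything near a scalar with constant `ε` is a scalar. -/
theorem scal_step [Finite G] {ρ : G →* Module.End ℂ V} (hiso : ∀ g v, ‖ρ g v‖ = ‖v‖)
    (hv0 : ∃ v : V, v ≠ 0)
    (hprim : ∀ B : Subgroup G, B.Normal → (∀ x ∈ B, ∀ y ∈ B, ρ x * ρ y = ρ y * ρ x) →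
      ∀ b ∈ B, IsScal ρ b)
    {ε : ℝ} (h0 : 0 ≤ ε) (hε : ε < 1 / 2)
    (hQ : ∀ x : G, Near ρ x 1 (2 * ε * ε) → IsScal ρ x)
    (g : G) (a : ℂ) (hg : Near ρ g a ε) : IsScal ρ g := by
  classical
  have hcomm : ∀ u t : G, ρ (u * g * u⁻¹) * ρ (t * g * t⁻¹) = ρ (t * g * t⁻¹) * ρ (u * g * u⁻¹) := by
    intro u t
    have hu := near_conj hiso hg u
    have ht := near_conj hiso hg t
    set x := u * g * u⁻¹ with hx
    set y := t * g * t⁻¹ with hy
    obtain ⟨γ, hγ⟩ := hQ _ (near_comm hiso hu ht h0 h0)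
    have hrot : ∀ v, ρ (x * y * x⁻¹) v = γ • ρ y v := by
      intro v
      have := hγ (ρ y v)
      rw [rho_mul_apply _ (x * y * x⁻¹) y⁻¹, rho_inv_apply'] at this
      exact this
    have hm : 0 < Nat.card G := Nat.card_pos
    have hpow : γ ^ Nat.card G = 1 := by
      obtain ⟨v, hv⟩ := hv0
      have hk : ∀ k : ℕ, ∀ v, ρ ((x * y * x⁻¹ * y⁻¹) ^ k) v = γ ^ k • v := by
        intro k
        induction k with
        | zero => intro v; simp
        | succ k ih =>
          intro v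
          rw [pow_succ, rho_mul_apply, hγ, map_smul, ih, smul_smul, pow_succ, mul_comm]
      have h1 := hk (Nat.card G) v
      rw [pow_card_eq_one', map_one] at h1
      have h2 : (γ ^ Nat.card G - 1) • v = 0 := by
        rw [sub_smul, one_smul, ← h1]; simp
      rcases smul_eq_zero.mp h2 with h3 | h3
      · exact sub_eq_zero.mp h3
      · exact absurd h3 hv
    have hone : γ = 1 := no_rotation hiso hε ht hv0 hrot hm hpow
    subst hone
    ext v
    have h1 := hrot (ρ x v)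
    rw [rho_mul_apply, rho_mul_apply, rho_inv_apply', one_smul] at h1
    exact h1
  have hclosure := closure_commute ρ (S := Group.conjugatesOfSet {g}) (by
    intro x hx y hy
    obtain ⟨a1, ha1, hx'⟩ := Group.mem_conjugatesOfSet_iff.mp hx
    obtain ⟨a2, ha2, hy'⟩ := Group.mem_conjugatesOfSet_iff.mp hy
    rw [Set.mem_singleton_iff] at ha1 ha2
    subst ha1
    subst ha2
    obtain ⟨c1, rfl⟩ := isConj_iff.mp hx'
    obtain ⟨c2, rfl⟩ := isConj_iff.mp hy'
    exact hcomm c1 c2)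
  have hnorm : (Subgroup.normalClosure ({g} : Set G)).Normal := inferInstance
  refine hprim _ hnorm hclosure g ?_
  exact Subgroup.subset_normalClosure (Set.mem_singleton g)

/-- The sixty degree theorem in operator form. -/
theorem blichfeldt_core [Finite G] {ρ : G →* Module.End ℂ V} (hiso : ∀ g v, ‖ρ g v‖ = ‖v‖)
    (hv0 : ∃ v : V, v ≠ 0)
    (hprim : ∀ B : Subgroup G, B.Normal → (∀ x ∈ B, ∀ y ∈ B, ρ x * ρ y = ρ y * ρ x) →
      ∀ b ∈ B, IsScal ρ b)
    {ε : ℝ} (hε : ε < 1 / 2) {g : G} {a : ℂ} (hg : Near ρ g a ε) : IsScal ρ g := by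
  classical
  obtain ⟨v0, hv0'⟩ := hv0
  have h0 : 0 ≤ ε := by
    have := hg v0
    have hp : 0 < ‖v0‖ := norm_pos_iff.mpr hv0'
    by_contra hneg
    push Not at hneg
    have h1 : ε * ‖v0‖ < 0 := mul_neg_of_neg_of_pos hneg hp
    have h2 := norm_nonneg (ρ g v0 - a • v0)
    linarith
  -- a positive lower bound for the displacement of elements not acting trivially
  obtain ⟨δ, hδ, hδ'⟩ : ∃ δ : ℝ, 0 < δ ∧ ∀ x : G, Near ρ x 1 δ → ∀ v, ρ x v = v := by
    have hex : ∀ x : G, ∃ δ : ℝ, 0 < δ ∧ (Near ρ x 1 δ → ∀ v, ρ x v = v) := by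
      intro x
      by_cases hx : ∀ v, ρ x v = v
      · exact ⟨1, one_pos, fun _ => hx⟩
      · push Not at hx
        obtain ⟨v, hv⟩ := hx
        have hv' : v ≠ 0 := by
          rintro rfl
          exact hv (map_zero _)
        have hp : 0 < ‖v‖ := norm_pos_iff.mpr hv'
        have hd : 0 < ‖ρ x v - v‖ := norm_pos_iff.mpr (sub_ne_zero.mpr hv)
        refine ⟨‖ρ x v - v‖ / (2 * ‖v‖), by positivity, fun hn => ?_⟩
        have h1 := hn v
        rw [one_smul] at h1
        have h2 : ‖ρ x v - v‖ / (2 * ‖v‖) * ‖v‖ = ‖ρ x v - v‖ / 2 := by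
          field_simp
        rw [h2] at h1
        linarith
    choose d hd hd' using hex
    haveI : Fintype G := Fintype.ofFinite G
    obtain ⟨x0, -, hx0⟩ := Finset.exists_min_image (Finset.univ : Finset G) d ⟨1, Finset.mem_univ _⟩
    refine ⟨d x0, hd x0, fun x hx => hd' x ?_⟩
    intro v
    refine (hx v).trans ?_
    exact mul_le_mul_of_nonneg_right (hx0 x (Finset.mem_univ _)) (norm_nonneg _)
  set t : ℝ := 2 * ε with ht
  have ht0 : 0 ≤ t := by positivity
  have ht1 : t < 1 := by rw [ht]; linarith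
  -- for large `K`, displacement at most `ε * t ^ K` forces the identity
  obtain ⟨K, hK⟩ : ∃ K : ℕ, ε * t ^ K < δ := by
    have hlim : Filter.Tendsto (fun k : ℕ => ε * t ^ k) Filter.atTop (nhds (ε * 0)) :=
      (tendsto_pow_atTop_nhds_zero_of_lt_one ht0 ht1).const_mul ε
    rw [mul_zero] at hlim
    exact (hlim.eventually (gt_mem_nhds hδ)).exists
  have hstep : ∀ j k : ℕ, K ≤ k + j → ∀ x : G, Near ρ x 1 (ε * t ^ k) → IsScal ρ x := by
    intro j
    induction j with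
    | zero =>
      intro k hk x hx
      refine ⟨1, fun v => ?_⟩
      rw [one_smul]
      refine hδ' x (fun v => (hx v).trans ?_) v
      refine mul_le_mul_of_nonneg_right ?_ (norm_nonneg _)
      have hkK : K ≤ k := by simpa using hk
      have : t ^ k ≤ t ^ K := pow_le_pow_of_le_one ht0 ht1.le hkK
      have h3 : ε * t ^ k ≤ ε * t ^ K := mul_le_mul_of_nonneg_left this h0
      linarith
    | succ j ih =>
      intro k hk x hx
      have hk' : K ≤ (k + 1) + j := by omega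
      have hck : 0 ≤ ε * t ^ k := by positivity
      have htk : t ^ k ≤ 1 := pow_le_one₀ ht0 ht1.le
      have hc_le : ε * t ^ k ≤ ε := by nlinarith
      refine scal_step hiso ⟨v0, hv0'⟩ hprim hck (lt_of_le_of_lt hc_le hε) ?_ x 1 hx
      intro y hy
      refine ih (k + 1) hk' y (fun v => (hy v).trans ?_)
      refine mul_le_mul_of_nonneg_right ?_ (norm_nonneg _)
      have e : 2 * (ε * t ^ k) * (ε * t ^ k) = ε * t * t ^ k * t ^ k := by rw [ht]; ring
      rw [e, pow_succ]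
      have h4 : ε * t * t ^ k * t ^ k ≤ ε * t * t ^ k * 1 := by
        refine mul_le_mul_of_nonneg_left htk ?_
        positivity
      calc ε * t * t ^ k * t ^ k ≤ ε * t * t ^ k * 1 := h4
        _ = ε * (t ^ k * t) := by ring
  -- conclude
  refine scal_step hiso ⟨v0, hv0'⟩ hprim h0 hε ?_ g a hg
  intro y hy
  refine hstep K 1 (by omega) y (fun v => (hy v).trans ?_)
  refine mul_le_mul_of_nonneg_right ?_ (norm_nonneg _)
  have e : 2 * ε * ε = ε * t ^ 1 := by rw [ht]; ring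
  rw [e]

end Cfsg.Agent.Lib.Blichfeldt
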