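import Cfsg.Agent.Lib.Blichfeldt.Weights

/-!
# Abelian normal subgroups of finite linear groups (Blichfeldt)
-/

set_option autoImplicit false

namespace Cfsg.Agent.Lib.Blichfeldt

open scoped InnerProductSpace

section Prim

variable {G : Type*} [Group G] {V : Type*} [NormedAddCommGroup V] [InnerProductSpace ℂ V]

/-- The elements acting by scalars. -/
def scalSub {ρ : G →* Module.End ℂ V} (hiso : ∀ g v, ‖ρ g v‖ = ‖v‖) (hv0 : ∃ v : V, v ≠ 0) :
    Subgroup G where
  carrier := {g | IsScal ρ g}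
  one_mem' := ⟨1, fun v => by simp⟩
  mul_mem' := by
    rintro x y ⟨c, hc⟩ ⟨c', hc'⟩
    exact ⟨c * c', fun v => by rw [rho_mul_apply, hc', map_smul, hc, smul_smul, mul_comm]⟩
  inv_mem' := by
    rintro x ⟨c, hc⟩
    obtain ⟨v0, hv0⟩ := hv0
    have hc0 : c ≠ 0 := by
      rintro rfl
      have := hiso x v0
      rw [hc, zero_smul, norm_zero] at this
      exact hv0 (norm_eq_zero.mp this.symm)
    refine ⟨c⁻¹, fun v => ?_⟩
    have := rho_inv_apply ρ x v
    rw [hc] at this
    rw [eq_inv_smul_iff₀ hc0]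
    exact this

theorem mem_scalSub {ρ : G →* Module.End ℂ V} (hiso : ∀ g v, ‖ρ g v‖ = ‖v‖)
    (hv0 : ∃ v : V, v ≠ 0) {g : G} : g ∈ scalSub hiso hv0 ↔ IsScal ρ g := Iff.rfl

theorem scalSub_normal {ρ : G →* Module.End ℂ V} (hiso : ∀ g v, ‖ρ g v‖ = ‖v‖)
    (hv0 : ∃ v : V, v ≠ 0) : (scalSub hiso hv0).Normal := by
  constructor
  rintro x ⟨c, hc⟩ u
  refine ⟨c, fun v => ?_⟩
  rw [rho_mul_apply, rho_mul_apply, hc, map_smul, rho_inv_apply]

theorem exists_bound {ι : Type*} [Finite ι] (f : ι → ℝ) (h0 : ∀ i, 0 ≤ f i) {c : ℝ} (hc : 0 < c)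
    (hf : ∀ i, f i < c) : ∃ e : ℝ, 0 ≤ e ∧ e < c ∧ ∀ i, f i ≤ e := by
  cases isEmpty_or_nonempty ι with
  | inl h => exact ⟨0, le_rfl, hc, fun i => (h.false i).elim⟩
  | inr h =>
    obtain ⟨i0, hi0⟩ := Finite.exists_max f
    exact ⟨f i0, h0 i0, hf i0, hi0⟩

/-- The primitive case: the scalars form an abelian normal subgroup with small index in every
abelian subgroup. -/
theorem prim_case [FiniteDimensional ℂ V] [Finite G] {ρ : G →* Module.End ℂ V}
    (hiso : ∀ g v, ‖ρ g v‖ = ‖v‖) (hv0 : ∃ v : V, v ≠ 0)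
    (hprim : ∀ B : Subgroup G, B.Normal → (∀ x ∈ B, ∀ y ∈ B, ρ x * ρ y = ρ y * ρ x) →
      ∀ b ∈ B, IsScal ρ b) :
    ∃ A : Subgroup G, A.Normal ∧ (∀ x ∈ A, ∀ y ∈ A, ρ x * ρ y = ρ y * ρ x) ∧
      ∀ H : Subgroup G, (∀ x ∈ H, ∀ y ∈ H, x * y = y * x) →
        A.relIndex H ≤ 12 ^ Module.finrank ℂ V := by
  classical
  refine ⟨scalSub hiso hv0, scalSub_normal hiso hv0, ?_, ?_⟩
  · rintro x ⟨c, hc⟩ y ⟨c', hc'⟩
    ext v
    simp only [Module.End.mul_apply, hc, hc', smul_smul, mul_comm]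
  intro H hH
  have hK : ∀ x ∈ H, ∀ y ∈ H, ρ x * ρ y = ρ y * ρ x := by
    intro x hx y hy
    rw [← map_mul, ← map_mul, hH x hx y hy]
  haveI := wts_finite hiso H
  letI : Fintype (Wts ρ H) := Fintype.ofFinite _
  set a : ℂ := ((Real.sqrt 3 / 2 : ℝ) : ℂ) with ha
  let f : H → (Wts ρ H → Fin 12) := fun h l => cell (l.1 h)
  have hkey : ∀ h h' : H, f h = f h' → (h⁻¹ * h') ∈ (scalSub hiso hv0).subgroupOf H := by
    intro h h' hf
    have hone : ∀ l : Wts ρ H, l.1 h⁻¹ = (starRingEnd ℂ) (l.1 h) := by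
      intro l
      have h1 := weight_mul l h⁻¹ h
      rw [inv_mul_cancel] at h1
      have h2 : l.1 1 = 1 := by
        have h3 := weight_mul l 1 1
        rw [mul_one] at h3
        have h4 := weight_norm hiso l 1
        have h5 : l.1 1 ≠ 0 := by
          intro h0
          rw [h0, norm_zero] at h4
          exact zero_ne_one h4
        exact (mul_eq_left₀ h5).mp h3.symm
      rw [h2] at h1
      have h6 : (starRingEnd ℂ) (l.1 h) * l.1 h = 1 := by
        rw [mul_comm, Complex.mul_conj, Complex.normSq_eq_norm_sq, weight_norm hiso l h]; simp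
      have h7 : l.1 h ≠ 0 := by
        intro h0
        have := weight_norm hiso l h
        rw [h0, norm_zero] at this
        exact zero_ne_one this
      exact mul_right_cancel₀ h7 (h1.symm.trans h6.symm)
    have hval : ∀ l : Wts ρ H, ‖l.1 (h⁻¹ * h') - a‖ < 1 / 2 := by
      intro l
      have hc : cell (l.1 h') = cell (l.1 h) := (congrFun hf l).symm
      have := near_of_cell (weight_norm hiso l h') (weight_norm hiso l h) hc
      rwa [weight_mul, hone, mul_comm]
    obtain ⟨ε, hε0, hε1, hε2⟩ := exists_bound (fun l : Wts ρ H => ‖l.1 (h⁻¹ * h') - a‖)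
      (fun _ => norm_nonneg _) (by norm_num : (0 : ℝ) < 1 / 2) hval
    have hnear := near_of_weights hiso H hK (h⁻¹ * h') a hε0 hε2
    exact blichfeldt_core hiso hv0 hprim hε1 hnear
  -- counting
  let K : Subgroup H := (scalSub hiso hv0).subgroupOf H
  let s : (Wts ρ H → Fin 12) → H ⧸ K := fun t =>
    if h : ∃ g, f g = t then QuotientGroup.mk h.choose else QuotientGroup.mk 1
  have hs : Function.Surjective s := by
    intro q
    induction q using QuotientGroup.induction_on with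
    | H h =>
      refine ⟨f h, ?_⟩
      have hex : ∃ g, f g = f h := ⟨h, rfl⟩
      simp only [s, dif_pos hex]
      exact QuotientGroup.eq.mpr (hkey _ _ hex.choose_spec)
  have h1 : Nat.card (H ⧸ K) ≤ Nat.card (Wts ρ H → Fin 12) :=
    Nat.card_le_card_of_surjective s hs
  have h2 : Nat.card (Wts ρ H → Fin 12) = 12 ^ Nat.card (Wts ρ H) := by
    simp [Nat.card_eq_fintype_card]
  have h3 : (12 : ℕ) ^ Nat.card (Wts ρ H) ≤ 12 ^ Module.finrank ℂ V :=
    Nat.pow_le_pow_right (by norm_num) (wts_card_le hiso H)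
  calc (scalSub hiso hv0).relIndex H = Nat.card (H ⧸ K) := rfl
    _ ≤ _ := by rw [h2] at h1; exact h1.trans h3

end Prim

section Imprim

variable {G : Type*} [Group G] {V : Type*} [NormedAddCommGroup V] [InnerProductSpace ℂ V]
variable {ι : Type*} [MulAction G ι]

/-- The action of the stabilizer of a block on the block. -/
def resRep (ρ : G →* Module.End ℂ V) (W : ι → Submodule ℂ V)
    (hact : ∀ (g : G) (i : ι) (v : V), v ∈ W i → ρ g v ∈ W (g • i)) (i : ι) :
    MulAction.stabilizer G i →* Module.End ℂ (W i) where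
  toFun g := (ρ (g : G)).restrict (fun v hv => by
    have := hact g i v hv
    rwa [MulAction.mem_stabilizer_iff.mp g.2] at this)
  map_one' := by
    ext v
    simp
  map_mul' x y := by
    ext v
    simp

theorem resRep_apply (ρ : G →* Module.End ℂ V) (W : ι → Submodule ℂ V)
    (hact : ∀ (g : G) (i : ι) (v : V), v ∈ W i → ρ g v ∈ W (g • i)) (i : ι)
    (g : MulAction.stabilizer G i) (v : W i) :
    ((resRep ρ W hact i g v : W i) : V) = ρ (g : G) v := rfl

theorem finrank_act_le [FiniteDimensional ℂ V] {ρ : G →* Module.End ℂ V}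
    (W : ι → Submodule ℂ V)
    (hact : ∀ (g : G) (i : ι) (v : V), v ∈ W i → ρ g v ∈ W (g • i)) (g : G) (i : ι) :
    Module.finrank ℂ (W i) ≤ Module.finrank ℂ (W (g • i)) := by
  let f : W i →ₗ[ℂ] W (g • i) := (ρ g).restrict (fun v hv => hact g i v hv)
  refine LinearMap.finrank_le_finrank_of_injective (f := f) ?_
  intro x y hxy
  have h1 : ρ g (x : V) = ρ g (y : V) := congrArg Subtype.val hxy
  have h2 := congrArg (ρ g⁻¹) h1
  rw [rho_inv_apply', rho_inv_apply'] at h2
  exact Subtype.ext h2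

theorem finrank_act [FiniteDimensional ℂ V] {ρ : G →* Module.End ℂ V}
    (W : ι → Submodule ℂ V)
    (hact : ∀ (g : G) (i : ι) (v : V), v ∈ W i → ρ g v ∈ W (g • i)) (g : G) (i : ι) :
    Module.finrank ℂ (W (g • i)) = Module.finrank ℂ (W i) := by
  refine le_antisymm ?_ (finrank_act_le W hact g i)
  have := finrank_act_le W hact g⁻¹ (g • i)
  rwa [inv_smul_smul] at this

theorem mem_conjMap {K : Subgroup G} {g x : G} :
    x ∈ K.map (MulAut.conj g).toMonoidHom ↔ g⁻¹ * x * g ∈ K := by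
  constructor
  · rintro ⟨y, hy, rfl⟩
    simpa [mul_assoc] using hy
  · intro h
    exact ⟨_, h, by simp [mul_assoc]⟩

/-- Every block is the image of a chosen representative block, and the chosen subgroups on the
representatives transport to all the blocks compatibly. -/
theorem exists_family [Finite G] [FiniteDimensional ℂ V] {ρ : G →* Module.End ℂ V}
    (W : ι → Submodule ℂ V)
    (hact : ∀ (g : G) (i : ι) (v : V), v ∈ W i → ρ g v ∈ W (g • i))
    (IH : ∀ i : ι, ∃ A : Subgroup (MulAction.stabilizer G i), A.Normal ∧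
      (∀ x ∈ A, ∀ y ∈ A, resRep ρ W hact i x * resRep ρ W hact i y =
        resRep ρ W hact i y * resRep ρ W hact i x) ∧
      ∀ H : Subgroup (MulAction.stabilizer G i), (∀ x ∈ H, ∀ y ∈ H, x * y = y * x) →
        A.relIndex H ≤ 12 ^ Module.finrank ℂ (W i)) :
    ∃ A : ι → Subgroup G,
      (∀ (g : G) (i : ι) (x : G), x ∈ A (g • i) ↔ g⁻¹ * x * g ∈ A i) ∧
      (∀ i, A i ≤ MulAction.stabilizer G i) ∧
      (∀ i, ∀ x ∈ A i, ∀ y ∈ A i, ∀ v ∈ W i, ρ x (ρ y v) = ρ y (ρ x v)) ∧
      (∀ i, ∀ H : Subgroup G, H ≤ MulAction.stabilizer G i → (∀ x ∈ H, ∀ y ∈ H, x * y = y * x) →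
        (A i).relIndex H ≤ 12 ^ Module.finrank ℂ (W i)) := by
  classical
  choose A0 hA0n hA0c hA0i using IH
  -- subgroups of `G` on all blocks
  let B : ι → Subgroup G := fun j => (A0 j).map (MulAction.stabilizer G j).subtype
  have hBle : ∀ j, B j ≤ MulAction.stabilizer G j := by
    rintro j _ ⟨y, -, rfl⟩
    exact y.2
  have hBn : ∀ j, ∀ s ∈ MulAction.stabilizer G j, ∀ x, x ∈ B j ↔ s * x * s⁻¹ ∈ B j := by
    intro j s hs x
    constructor
    · rintro ⟨y, hy, rfl⟩
      have := (hA0n j).conj_mem y hy ⟨s, hs⟩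
      exact ⟨_, this, by simp⟩
    · rintro ⟨y, hy, hxy⟩
      have hxs : x ∈ MulAction.stabilizer G j := by
        have h1 : s⁻¹ * (y : G) * s ∈ MulAction.stabilizer G j :=
          (MulAction.stabilizer G j).mul_mem ((MulAction.stabilizer G j).mul_mem
            ((MulAction.stabilizer G j).inv_mem hs) y.2) hs
        have h2 : s⁻¹ * (y : G) * s = x := by
          have h3 : (y : G) = s * x * s⁻¹ := hxy
          rw [h3]; group
        rwa [h2] at h1
      refine ⟨⟨x, hxs⟩, ?_, rfl⟩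
      have hxe : (⟨x, hxs⟩ : MulAction.stabilizer G j) = (⟨s, hs⟩ : MulAction.stabilizer G j)⁻¹ * y *
          ((⟨s, hs⟩ : MulAction.stabilizer G j)⁻¹)⁻¹ := by
        apply Subtype.ext
        simp only [Subgroup.coe_mul, InvMemClass.coe_inv, inv_inv]
        rw [show (y : G) = s * x * s⁻¹ from hxy]
        group
      rw [hxe]
      exact (hA0n j).conj_mem y hy _
  have hBc : ∀ j, ∀ x ∈ B j, ∀ y ∈ B j, ∀ v ∈ W j, ρ x (ρ y v) = ρ y (ρ x v) := by
    rintro j _ ⟨x, hx, rfl⟩ _ ⟨y, hy, rfl⟩ v hv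
    have h1 := hA0c j x hx y hy
    have h2 := congrArg (fun T : Module.End ℂ (W j) => ((T ⟨v, hv⟩ : W j) : V)) h1
    exact h2
  have hBi : ∀ j, ∀ H : Subgroup G, H ≤ MulAction.stabilizer G j →
      (∀ x ∈ H, ∀ y ∈ H, x * y = y * x) → (B j).relIndex H ≤ 12 ^ Module.finrank ℂ (W j) := by
    intro j H hle hab
    have h1 := hA0i j (H.subgroupOf (MulAction.stabilizer G j)) (by
      intro x hx y hy
      exact Subtype.ext (hab x hx y hy))
    have h2 : (H.subgroupOf (MulAction.stabilizer G j)).map (MulAction.stabilizer G j).subtype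
        = H := Subgroup.map_subgroupOf_eq_of_le hle
    rw [← Subgroup.relIndex_map_map_of_injective _ _
      (Subgroup.subtype_injective (MulAction.stabilizer G j)), h2] at h1
    exact h1
  -- representatives
  let r : ι → ι := fun i => Quotient.out (Quotient.mk (MulAction.orbitRel G ι) i)
  have hr : ∀ i, ∃ g : G, g • r i = i := by
    intro i
    have h1 : (Quotient.mk (MulAction.orbitRel G ι) i).out ∈ MulAction.orbit G i :=
      MulAction.orbitRel_apply.mp (Quotient.mk_out (s := MulAction.orbitRel G ι) i)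
    obtain ⟨g, hg⟩ := h1
    refine ⟨g⁻¹, ?_⟩
    change g⁻¹ • (Quotient.mk (MulAction.orbitRel G ι) i).out = i
    rw [← hg]
    simp
  choose γ hγ using hr
  have hrg : ∀ (g : G) (i : ι), r (g • i) = r i := by
    intro g i
    have : Quotient.mk (MulAction.orbitRel G ι) (g • i) = Quotient.mk (MulAction.orbitRel G ι) i :=
      Quotient.sound (MulAction.orbitRel_apply.mpr ⟨g, rfl⟩)
    change Quotient.out _ = Quotient.out _
    rw [this]
  refine ⟨fun i => (B (r i)).map (MulAut.conj (γ i)).toMonoidHom, ?_, ?_, ?_, ?_⟩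
  · intro g i x
    rw [mem_conjMap, mem_conjMap, hrg]
    set j := r i with hj
    have hx' : γ (g • i) • j = g • i := by
      have := hγ (g • i)
      rwa [hrg] at this
    have hy' : γ i • j = i := hγ i
    set t : G := (γ (g • i))⁻¹ * g * γ i with ht
    have hts : t ∈ MulAction.stabilizer G j := by
      rw [MulAction.mem_stabilizer_iff, ht, mul_smul, mul_smul, hy', inv_smul_eq_iff, hx']
    have := hBn j t⁻¹ ((MulAction.stabilizer G j).inv_mem hts)
      ((γ (g • i))⁻¹ * x * γ (g • i))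
    rw [this]
    have e : t⁻¹ * ((γ (g • i))⁻¹ * x * γ (g • i)) * t⁻¹⁻¹ =
        (γ i)⁻¹ * (g⁻¹ * x * g) * γ i := by
      rw [ht]; group
    rw [e]
  · intro i x hx
    rw [mem_conjMap] at hx
    have h1 := hBle _ hx
    rw [MulAction.mem_stabilizer_iff] at h1 ⊢
    have h2 : x • i = (γ i) • (((γ i)⁻¹ * x * γ i) • r i) := by
      rw [← mul_smul]
      have : γ i * ((γ i)⁻¹ * x * γ i) = x * γ i := by group
      rw [this, mul_smul, hγ i]
    rw [h2, h1, hγ i]
  · intro i x hx y hy v hv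
    rw [mem_conjMap] at hx hy
    set z := γ i with hz
    have hw : ρ z⁻¹ v ∈ W (r i) := by
      have := hact z⁻¹ i v hv
      have e : z⁻¹ • i = r i := by
        rw [inv_smul_eq_iff]
        exact (hγ i).symm
      rwa [e] at this
    have h1 := hBc _ _ hx _ hy _ hw
    have e1 : ∀ (a : G), ρ (z⁻¹ * a * z) (ρ z⁻¹ v) = ρ z⁻¹ (ρ a v) := by
      intro a
      rw [rho_mul_apply, rho_mul_apply, rho_inv_apply]
    have h2 : ρ (z⁻¹ * x * z) (ρ (z⁻¹ * y * z) (ρ z⁻¹ v)) = ρ z⁻¹ (ρ x (ρ y v)) := by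
      rw [e1, rho_mul_apply, rho_mul_apply, rho_inv_apply]
    have h3 : ρ (z⁻¹ * y * z) (ρ (z⁻¹ * x * z) (ρ z⁻¹ v)) = ρ z⁻¹ (ρ y (ρ x v)) := by
      rw [e1, rho_mul_apply, rho_mul_apply, rho_inv_apply]
    rw [h2, h3] at h1
    have h4 := congrArg (ρ z) h1
    rwa [rho_inv_apply, rho_inv_apply] at h4
  · intro i H hle hab
    set z := γ i with hz
    have hH' : H.map (MulAut.conj z⁻¹).toMonoidHom ≤ MulAction.stabilizer G (r i) := by
      rintro _ ⟨x, hx, rfl⟩
      have h1 := hle hx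
      rw [MulAction.mem_stabilizer_iff] at h1 ⊢
      have e : z⁻¹ • i = r i := by
        rw [inv_smul_eq_iff]
        exact (hγ i).symm
      simp only [MulEquiv.coe_toMonoidHom, MulAut.conj_apply, inv_inv]
      rw [← e, mul_smul, mul_smul, smul_inv_smul, h1]
    have hab' : ∀ x ∈ H.map (MulAut.conj z⁻¹).toMonoidHom,
        ∀ y ∈ H.map (MulAut.conj z⁻¹).toMonoidHom, x * y = y * x := by
      rintro _ ⟨x, hx, rfl⟩ _ ⟨y, hy, rfl⟩
      simp only [MulEquiv.coe_toMonoidHom, MulAut.conj_apply, inv_inv]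
      have := hab x hx y hy
      calc z⁻¹ * x * z * (z⁻¹ * y * z) = z⁻¹ * (x * y) * z := by group
        _ = z⁻¹ * (y * x) * z := by rw [this]
        _ = z⁻¹ * y * z * (z⁻¹ * x * z) := by group
    have h1 := hBi _ _ hH' hab'
    have h2 : (H.map (MulAut.conj z⁻¹).toMonoidHom).map (MulAut.conj z).toMonoidHom = H := by
      ext x
      rw [mem_conjMap, mem_conjMap]
      simp [mul_assoc]
    have h3 := Subgroup.relIndex_map_map_of_injective (B (r i))
      (H.map (MulAut.conj z⁻¹).toMonoidHom) (f := (MulAut.conj z).toMonoidHom)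
      (MulEquiv.injective _)
    rw [h2] at h3
    rw [h3]
    refine h1.trans (le_of_eq ?_)
    have e : z • r i = i := hγ i
    rw [← finrank_act W hact z (r i), e]

theorem finrank_sum_of_orth [Fintype ι] [FiniteDimensional ℂ V] (W : ι → Submodule ℂ V)
    (hfam : OrthogonalFamily ℂ (fun i => W i) (fun i => (W i).subtypeₗᵢ))
    (htop : ⨆ i, W i = ⊤) : ∑ i, Module.finrank ℂ (W i) = Module.finrank ℂ V := by
  classical
  have hint : DirectSum.IsInternal W := hfam.isInternal_iff.mpr (by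
    rw [htop, Submodule.top_orthogonal_eq_bot])
  let e : (DirectSum ι fun i => W i) ≃ₗ[ℂ] V :=
    LinearEquiv.ofBijective (DirectSum.coeLinearMap W) hint
  rw [← e.finrank_eq, Module.finrank_directSum]

theorem pow_aux {n d : ℕ} (hn : 1 ≤ n) (hd : 1 ≤ d) : n * 12 ^ d ≤ 12 ^ (n * d) := by
  obtain ⟨m, rfl⟩ : ∃ m, n = m + 1 := ⟨n - 1, by omega⟩
  have h1 : m + 1 ≤ 12 ^ m := Nat.lt_pow_self (by norm_num)
  have h2 : (12 : ℕ) ^ m ≤ 12 ^ (m * d) :=
    Nat.pow_le_pow_right (by norm_num) (Nat.le_mul_of_pos_right m hd)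
  calc (m + 1) * 12 ^ d ≤ 12 ^ (m * d) * 12 ^ d := Nat.mul_le_mul_right _ (h1.trans h2)
    _ = 12 ^ ((m + 1) * d) := by rw [← pow_add]; congr 1; ring

theorem imprim_index [Finite G] [Fintype ι] [FiniteDimensional ℂ V] {ρ : G →* Module.End ℂ V}
    (W : ι → Submodule ℂ V)
    (hact : ∀ (g : G) (i : ι) (v : V), v ∈ W i → ρ g v ∈ W (g • i))
    (hne : ∀ i, W i ≠ ⊥)
    (A : ι → Subgroup G)
    (h1 : ∀ (g : G) (i : ι) (x : G), x ∈ A (g • i) ↔ g⁻¹ * x * g ∈ A i)
    (h2 : ∀ i, A i ≤ MulAction.stabilizer G i)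
    (h4 : ∀ i, ∀ H : Subgroup G, H ≤ MulAction.stabilizer G i →
      (∀ x ∈ H, ∀ y ∈ H, x * y = y * x) → (A i).relIndex H ≤ 12 ^ Module.finrank ℂ (W i))
    (H : Subgroup G) (hab : ∀ x ∈ H, ∀ y ∈ H, x * y = y * x) :
    (⨅ i, A i).relIndex H ≤ 12 ^ (∑ i, Module.finrank ℂ (W i)) := by
  classical
  let Ω := MulAction.orbitRel.Quotient H ι
  letI : Fintype Ω := Fintype.ofFinite _
  let π : ι → Ω := fun i => Quotient.mk (MulAction.orbitRel H ι) i
  let ω : Ω → ι := fun q => Quotient.out q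
  have hX : ∀ h ∈ H, ∀ i, ∀ x ∈ H, x ∈ A (h • i) ↔ x ∈ A i := by
    intro h hh i x hx
    rw [h1]
    have : h⁻¹ * x * h = x := by
      rw [hab h⁻¹ (H.inv_mem hh) x hx, mul_assoc, inv_mul_cancel, mul_one]
    rw [this]
  have hY : ∀ i, ∃ h : H, (h : G) • ω (π i) = i := by
    intro i
    have h3 : ω (π i) ∈ MulAction.orbit H i :=
      MulAction.orbitRel_apply.mp (Quotient.mk_out (s := MulAction.orbitRel H ι) i)
    obtain ⟨g, hg⟩ := h3
    refine ⟨g⁻¹, ?_⟩
    rw [← hg]
    change ((g⁻¹ : H) : G) • ((g : G) • i) = i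
    simp
  have hZ : (⨅ i, A i) ⊓ H = (⨅ q, A (ω q)) ⊓ H := by
    ext x
    simp only [Subgroup.mem_inf, Subgroup.mem_iInf]
    constructor
    · rintro ⟨hx, hxH⟩
      exact ⟨fun q => hx _, hxH⟩
    · rintro ⟨hx, hxH⟩
      refine ⟨fun i => ?_, hxH⟩
      obtain ⟨h, hh⟩ := hY i
      rw [← hh, hX h h.2 _ x hxH]
      exact hx _
  have hcount : ∀ q : Ω, (A (ω q)).relIndex H ≤
      ((Finset.univ.filter fun i => π i = q).card) * 12 ^ Module.finrank ℂ (W (ω q)) := by
    intro q
    set i := ω q with hi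
    set S : Subgroup G := MulAction.stabilizer G i ⊓ H with hS
    have hSH : S ≤ H := inf_le_right
    have hle : A i ⊓ H ≤ S := fun x hx => ⟨h2 i hx.1, hx.2⟩
    have e1 : (A i).relIndex H = (A i).relIndex S * S.relIndex H := by
      rw [← Subgroup.inf_relIndex_right (A i) H,
        ← Subgroup.relIndex_mul_relIndex _ _ _ hle hSH]
      congr 1
      rw [← Subgroup.inf_relIndex_right (A i ⊓ H) S, ← Subgroup.inf_relIndex_right (A i) S]
      congr 1
      ext x
      simp only [Subgroup.mem_inf]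
      constructor
      · rintro ⟨⟨h5, -⟩, h6⟩
        exact ⟨h5, h6⟩
      · rintro ⟨h5, h6⟩
        exact ⟨⟨h5, hSH h6⟩, h6⟩
    have e2 : S.relIndex H = (Finset.univ.filter fun j => π j = q).card := by
      rw [hS, Subgroup.inf_relIndex_right]
      have e3 : (MulAction.stabilizer G i).subgroupOf H = MulAction.stabilizer H i := by
        ext x
        simp [Subgroup.mem_subgroupOf, MulAction.mem_stabilizer_iff, Subgroup.smul_def]
      have e4 : (MulAction.stabilizer G i).relIndex H = (MulAction.orbit H i).ncard := by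
        rw [Subgroup.relIndex, e3, MulAction.index_stabilizer]
      rw [e4]
      have e5 : MulAction.orbit H i = ↑(Finset.univ.filter fun j => π j = q) := by
        ext j
        simp only [Finset.coe_filter, Finset.mem_univ, true_and, Set.mem_ofPred_eq]
        constructor
        · intro hj
          have hq : π i = q := Quotient.out_eq q
          rw [← hq]
          exact Quotient.sound (MulAction.orbitRel_apply.mpr hj)
        · intro hj
          have hq : π i = q := Quotient.out_eq q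
          have h6 : π j = π i := hj.trans hq.symm
          exact MulAction.orbitRel_apply.mp (Quotient.exact h6)
      rw [e5, Set.ncard_coe_finset]
    rw [e1, e2, mul_comm]
    refine Nat.mul_le_mul_left _ (h4 i S inf_le_left ?_)
    intro x hx y hy
    exact hab x (hSH hx) y (hSH hy)
  have hdeg : ∀ q : Ω, ∀ j, π j = q → Module.finrank ℂ (W j) = Module.finrank ℂ (W (ω q)) := by
    intro q j hj
    obtain ⟨h, hh⟩ := hY j
    rw [hj] at hh
    rw [← hh, finrank_act W hact]
  have hsum : ∑ i, Module.finrank ℂ (W i) =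
      ∑ q : Ω, (Finset.univ.filter fun j => π j = q).card * Module.finrank ℂ (W (ω q)) := by
    rw [← Finset.sum_fiberwise Finset.univ π]
    refine Finset.sum_congr rfl fun q _ => ?_
    rw [Finset.sum_congr rfl (fun j hj => hdeg q j (Finset.mem_filter.mp hj).2)]
    simp
  rw [← Subgroup.inf_relIndex_right, hZ, Subgroup.inf_relIndex_right, hsum, ← Finset.prod_pow_eq_pow_sum]
  refine (Subgroup.relIndex_iInf_le _).trans ?_
  refine Finset.prod_le_prod' fun q _ => (hcount q).trans ?_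
  refine pow_aux ?_ ?_
  · refine Finset.card_pos.mpr ⟨ω q, ?_⟩
    simp only [Finset.mem_filter, Finset.mem_univ, true_and]
    exact Quotient.out_eq q
  · exact Submodule.one_le_finrank_iff.mpr (hne _)

/-- The imprimitive step. -/
theorem imprim_case [Finite G] [Fintype ι] [FiniteDimensional ℂ V] {ρ : G →* Module.End ℂ V}
    (W : ι → Submodule ℂ V)
    (hfam : OrthogonalFamily ℂ (fun i => W i) (fun i => (W i).subtypeₗᵢ))
    (htop : ⨆ i, W i = ⊤)
    (hact : ∀ (g : G) (i : ι) (v : V), v ∈ W i → ρ g v ∈ W (g • i))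
    (hne : ∀ i, W i ≠ ⊥)
    (IH : ∀ i : ι, ∃ A : Subgroup (MulAction.stabilizer G i), A.Normal ∧
      (∀ x ∈ A, ∀ y ∈ A, resRep ρ W hact i x * resRep ρ W hact i y =
        resRep ρ W hact i y * resRep ρ W hact i x) ∧
      ∀ H : Subgroup (MulAction.stabilizer G i), (∀ x ∈ H, ∀ y ∈ H, x * y = y * x) →
        A.relIndex H ≤ 12 ^ Module.finrank ℂ (W i)) :
    ∃ A : Subgroup G, A.Normal ∧ (∀ x ∈ A, ∀ y ∈ A, ρ x * ρ y = ρ y * ρ x) ∧
      ∀ H : Subgroup G, (∀ x ∈ H, ∀ y ∈ H, x * y = y * x) →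
        A.relIndex H ≤ 12 ^ Module.finrank ℂ V := by
  obtain ⟨A, h1, h2, h3, h4⟩ := exists_family W hact IH
  refine ⟨⨅ i, A i, ?_, ?_, ?_⟩
  · constructor
    intro n hn g
    rw [Subgroup.mem_iInf] at hn ⊢
    intro i
    have := (h1 g (g⁻¹ • i) (g * n * g⁻¹)).mpr (by
      have e : g⁻¹ * (g * n * g⁻¹) * g = n := by group
      rw [e]
      exact hn _)
    rwa [smul_inv_smul] at this
  · intro x hx y hy
    rw [Subgroup.mem_iInf] at hx hy
    ext v
    have hv : v ∈ ⨆ i, W i := by rw [htop]; exact Submodule.mem_top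
    change ρ x (ρ y v) = ρ y (ρ x v)
    induction hv using Submodule.iSup_induction' with
    | mem i v hv => exact h3 i x (hx i) y (hy i) v hv
    | zero => simp
    | add a b _ _ ha hb => simp only [map_add, ha, hb]
  · intro H hab
    have := imprim_index W hact hne A h1 h2 h4 H hab
    rwa [finrank_sum_of_orth W hfam htop] at this

end Imprim

section MainClaim

universe u v

/-- The action of `G` on weights of a normal subgroup. -/
def wtSmul {G : Type*} [Group G] {B : Subgroup G} (hB : B.Normal) (g : G) (χ : B → ℂ) : B → ℂ :=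
  fun k => χ ⟨g⁻¹ * k * g, by simpa using hB.conj_mem k k.2 g⁻¹⟩

theorem wt_act {G : Type*} [Group G] {V : Type*} [NormedAddCommGroup V] [InnerProductSpace ℂ V]
    {ρ : G →* Module.End ℂ V} {B : Subgroup G} (hB : B.Normal) (g : G) {χ : B → ℂ} {v : V}
    (hv : v ∈ Wt ρ B χ) : ρ g v ∈ Wt ρ B (wtSmul hB g χ) := by
  rw [mem_Wt] at hv ⊢
  intro k
  have h1 := hv ⟨g⁻¹ * k * g, by simpa using hB.conj_mem k k.2 g⁻¹⟩
  have h2 : ρ (k : G) (ρ g v) = ρ g (ρ (g⁻¹ * k * g) v) := by
    rw [rho_mul_apply, rho_mul_apply, rho_inv_apply]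
  rw [h2]
  simp only at h1
  rw [h1, map_smul]
  rfl

/-- The action on the occurring weights. -/
def wtsAction {G : Type*} [Group G] {V : Type*} [NormedAddCommGroup V] [InnerProductSpace ℂ V]
    {ρ : G →* Module.End ℂ V} (hiso : ∀ g v, ‖ρ g v‖ = ‖v‖) {B : Subgroup G} (hB : B.Normal) :
    MulAction G (Wts ρ B) where
  smul g l := ⟨wtSmul hB g l.1, by
    obtain ⟨v, hv, hv0⟩ := (Submodule.ne_bot_iff _).mp l.2
    refine (Submodule.ne_bot_iff _).mpr ⟨ρ g v, wt_act hB g hv, ?_⟩
    intro h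
    have := hiso g v
    rw [h, norm_zero] at this
    exact hv0 (norm_eq_zero.mp this.symm)⟩
  one_smul l := by
    apply Subtype.ext
    funext k
    change l.1 _ = l.1 k
    exact congrArg l.1 (Subtype.ext (by simp))
  mul_smul g h l := by
    apply Subtype.ext
    funext k
    change l.1 _ = l.1 _
    exact congrArg l.1 (Subtype.ext (by simp [mul_assoc]))

/-- Blichfeldt's theorem for isometric actions. -/
theorem main_claim : ∀ (d : ℕ) (G : Type u) [Group G] [Finite G] (V : Type v)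
    [NormedAddCommGroup V] [InnerProductSpace ℂ V] [FiniteDimensional ℂ V]
    (ρ : G →* Module.End ℂ V), (∀ g v, ‖ρ g v‖ = ‖v‖) → Module.finrank ℂ V = d →
    ∃ A : Subgroup G, A.Normal ∧ (∀ x ∈ A, ∀ y ∈ A, ρ x * ρ y = ρ y * ρ x) ∧
      ∀ H : Subgroup G, (∀ x ∈ H, ∀ y ∈ H, x * y = y * x) → A.relIndex H ≤ 12 ^ d := by
  intro d
  induction d using Nat.strong_induction_on with
  | _ d IHd =>
    intro G _ _ V _ _ _ ρ hiso hd
    classical
    by_cases hd0 : d = 0
    · subst hd0
      haveI : Subsingleton V := Module.finrank_zero_iff.mp hd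
      refine ⟨⊤, inferInstance, fun x _ y _ => ?_, fun H _ => by simp⟩
      ext v
      exact Subsingleton.elim _ _
    have hv0 : ∃ v : V, v ≠ 0 := by
      by_contra hcon
      push Not at hcon
      haveI : Subsingleton V := ⟨fun a b => by rw [hcon a, hcon b]⟩
      exact hd0 (hd ▸ Module.finrank_zero_of_subsingleton)
    by_cases hprim : ∀ B : Subgroup G, B.Normal → (∀ x ∈ B, ∀ y ∈ B, ρ x * ρ y = ρ y * ρ x) →
        ∀ b ∈ B, IsScal ρ b
    · have := prim_case hiso hv0 hprim
      rwa [hd] at this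
    push Not at hprim
    obtain ⟨B, hBn, hBc, b, hb, hbs⟩ := hprim
    haveI := wts_finite hiso B
    letI : Fintype (Wts ρ B) := Fintype.ofFinite _
    letI := wtsAction hiso hBn
    let W : Wts ρ B → Submodule ℂ V := fun l => Wt ρ B l.1
    have hfam : OrthogonalFamily ℂ (fun i => W i) (fun i => (W i).subtypeₗᵢ) :=
      (wt_orthogonalFamily hiso B).comp Subtype.val_injective
    have htop : ⨆ i, W i = ⊤ := wts_iSup ρ B hBc
    have hact : ∀ (g : G) (i : Wts ρ B) (v : V), v ∈ W i → ρ g v ∈ W (g • i) :=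
      fun g i v hv => wt_act hBn g hv
    have hne : ∀ i, W i ≠ ⊥ := fun i => i.2
    have hlt : ∀ i, Module.finrank ℂ (W i) < d := by
      intro i
      rw [← hd]
      refine Submodule.finrank_lt ?_
      intro htop'
      apply hbs
      refine ⟨i.1 ⟨b, hb⟩, fun v => ?_⟩
      have hv : v ∈ W i := by rw [htop']; exact Submodule.mem_top
      exact mem_Wt.mp hv ⟨b, hb⟩
    have := imprim_case W hfam htop hact hne (fun i => by
      refine IHd _ (hlt i) (MulAction.stabilizer G i) (W i) (resRep ρ W hact i) ?_ rfl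
      intro g v
      rw [Submodule.coe_norm, resRep_apply, hiso, Submodule.coe_norm])
    rwa [hd] at this

end MainClaim

end Cfsg.Agent.Lib.Blichfeldt
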