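import Cfsg.Agent.Lib.Blichfeldt.Main

/-!
# An invariant inner product on a coordinate representation
-/

set_option autoImplicit false

namespace Cfsg.Agent.Lib.Blichfeldt

/-- A copy of the coordinate space, without a norm. -/
def AvgSpace (m : ℕ) : Type := Fin m → ℂ

noncomputable instance (m : ℕ) : AddCommGroup (AvgSpace m) :=
  inferInstanceAs (AddCommGroup (Fin m → ℂ))

noncomputable instance (m : ℕ) : Module ℂ (AvgSpace m) :=
  inferInstanceAs (Module ℂ (Fin m → ℂ))

instance (m : ℕ) : FiniteDimensional ℂ (AvgSpace m) :=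
  inferInstanceAs (FiniteDimensional ℂ (Fin m → ℂ))

theorem finrank_avg (m : ℕ) : Module.finrank ℂ (AvgSpace m) = m := Module.finrank_fin_fun ℂ

variable {G : Type*} [Group G] [Fintype G] {m : ℕ}

/-- The averaged standard form. -/
noncomputable def avgInner (ρ : G →* Module.End ℂ (AvgSpace m)) (u v : AvgSpace m) : ℂ :=
  ∑ g : G, ∑ i : Fin m, (starRingEnd ℂ) ((ρ g u : Fin m → ℂ) i) * (ρ g v : Fin m → ℂ) i

theorem avgInner_invariant (ρ : G →* Module.End ℂ (AvgSpace m)) (g : G) (u v : AvgSpace m) :
    avgInner ρ (ρ g u) (ρ g v) = avgInner ρ u v := by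
  unfold avgInner
  refine Fintype.sum_equiv (Equiv.mulRight g) _ _ fun h => ?_
  have e : ∀ w, ρ (h * g) w = ρ h (ρ g w) := fun w => by rw [map_mul]; rfl
  simp only [Equiv.coe_mulRight, e]

/-- The averaged form is an inner product. -/
noncomputable def avgCore (ρ : G →* Module.End ℂ (AvgSpace m)) :
    InnerProductSpace.Core ℂ (AvgSpace m) where
  inner := avgInner ρ
  conj_inner_symm x y := by
    simp only [avgInner, map_sum, map_mul, Complex.conj_conj]
    refine Finset.sum_congr rfl fun g _ => Finset.sum_congr rfl fun i _ => mul_comm _ _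
  re_inner_nonneg x := by
    simp only [avgInner, map_sum]
    refine Finset.sum_nonneg fun g _ => Finset.sum_nonneg fun i _ => ?_
    rw [mul_comm, Complex.mul_conj]
    simp [Complex.normSq_nonneg]
  add_left x y z := by
    simp only [avgInner, map_add]
    rw [← Finset.sum_add_distrib]
    refine Finset.sum_congr rfl fun g _ => ?_
    rw [← Finset.sum_add_distrib]
    refine Finset.sum_congr rfl fun i _ => ?_
    change (starRingEnd ℂ) ((ρ g x : Fin m → ℂ) i + (ρ g y : Fin m → ℂ) i) * _ = _
    rw [map_add, add_mul]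
  smul_left x y r := by
    simp only [avgInner, map_smul]
    rw [Finset.mul_sum]
    refine Finset.sum_congr rfl fun g _ => ?_
    rw [Finset.mul_sum]
    refine Finset.sum_congr rfl fun i _ => ?_
    change (starRingEnd ℂ) (r * (ρ g x : Fin m → ℂ) i) * _ = _
    rw [map_mul, mul_assoc]
  definite x hx := by
    have hre : ∑ g : G, ∑ i : Fin m, Complex.normSq ((ρ g x : Fin m → ℂ) i) = 0 := by
      have := congrArg Complex.re hx
      simp only [avgInner, Complex.re_sum, Complex.zero_re] at this
      rw [← this]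
      refine Finset.sum_congr rfl fun g _ => Finset.sum_congr rfl fun i _ => ?_
      rw [mul_comm, Complex.mul_conj]
      simp
    have h1 := (Finset.sum_eq_zero_iff_of_nonneg (fun g _ =>
      Finset.sum_nonneg fun i _ => Complex.normSq_nonneg _)).mp hre 1 (Finset.mem_univ _)
    have h2 := (Finset.sum_eq_zero_iff_of_nonneg (fun i _ => Complex.normSq_nonneg _)).mp h1
    funext i
    have h3 := h2 i (Finset.mem_univ _)
    rw [map_one] at h3
    exact Complex.normSq_eq_zero.mp h3

/-- Blichfeldt's theorem for coordinate representations. -/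
theorem blichfeldt_coord {G : Type*} [Group G] [Finite G] (m : ℕ)
    (ρ : G →* Module.End ℂ (AvgSpace m)) :
    ∃ A : Subgroup G, A.Normal ∧ (∀ x ∈ A, ∀ y ∈ A, ρ x * ρ y = ρ y * ρ x) ∧
      ∀ H : Subgroup G, (∀ x ∈ H, ∀ y ∈ H, x * y = y * x) → A.relIndex H ≤ 12 ^ m := by
  letI : Fintype G := Fintype.ofFinite G
  letI core := avgCore ρ
  letI inst1 : NormedAddCommGroup (AvgSpace m) := core.toNormedAddCommGroup
  letI inst2 : InnerProductSpace ℂ (AvgSpace m) := InnerProductSpace.ofCore core.toCore
  refine main_claim m G (AvgSpace m) ρ ?_ (finrank_avg m)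
  intro g v
  change Real.sqrt (RCLike.re (avgInner ρ (ρ g v) (ρ g v))) = Real.sqrt (RCLike.re (avgInner ρ v v))
  rw [avgInner_invariant]

end Cfsg.Agent.Lib.Blichfeldt
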