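import Cfsg.Agent.Lib.Blichfeldt.Core

/-!
# Joint eigenspaces of a commuting family of finite order isometries
-/

set_option autoImplicit false

namespace Cfsg.Agent.Lib.Blichfeldt

open scoped InnerProductSpace

variable {G : Type*} [Group G] {V : Type*} [NormedAddCommGroup V] [InnerProductSpace ℂ V]

/-- The joint eigenspace of the action of the subgroup `K` with weight `χ`. -/
def Wt (ρ : G →* Module.End ℂ V) (K : Subgroup G) (χ : K → ℂ) : Submodule ℂ V :=
  ⨅ k : K, Module.End.eigenspace (ρ k) (χ k)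

theorem mem_Wt {ρ : G →* Module.End ℂ V} {K : Subgroup G} {χ : K → ℂ} {v : V} :
    v ∈ Wt ρ K χ ↔ ∀ k : K, ρ k v = χ k • v := by
  simp [Wt, Submodule.mem_iInf, Module.End.mem_eigenspace_iff]

theorem inner_rho {ρ : G →* Module.End ℂ V} (hiso : ∀ g v, ‖ρ g v‖ = ‖v‖) (g : G) (v w : V) :
    ⟪ρ g v, ρ g w⟫_ℂ = ⟪v, w⟫_ℂ :=
  (LinearIsometry.mk (ρ g) (hiso g)).inner_map_map v w

theorem norm_weight {ρ : G →* Module.End ℂ V} (hiso : ∀ g v, ‖ρ g v‖ = ‖v‖) {K : Subgroup G}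
    {χ : K → ℂ} {v : V} (hv : v ∈ Wt ρ K χ) (hv0 : v ≠ 0) (k : K) : ‖χ k‖ = 1 := by
  have h := hiso k v
  rw [mem_Wt.mp hv k, norm_smul] at h
  have hp : 0 < ‖v‖ := norm_pos_iff.mpr hv0
  have : ‖χ k‖ * ‖v‖ = 1 * ‖v‖ := by rw [h, one_mul]
  exact mul_right_cancel₀ hp.ne' this

theorem wt_orth {ρ : G →* Module.End ℂ V} (hiso : ∀ g v, ‖ρ g v‖ = ‖v‖) {K : Subgroup G}
    {χ χ' : K → ℂ} (hne : χ ≠ χ') {v w : V} (hv : v ∈ Wt ρ K χ) (hw : w ∈ Wt ρ K χ') :
    ⟪v, w⟫_ℂ = 0 := by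
  by_cases hv0 : v = 0
  · simp [hv0]
  obtain ⟨k, hk⟩ := Function.ne_iff.mp hne
  have h1 := inner_rho hiso (k : G) v w
  rw [mem_Wt.mp hv k, mem_Wt.mp hw k, inner_smul_left, inner_smul_right] at h1
  have h2 := norm_weight hiso hv hv0 k
  by_contra hne0
  have h3 : (starRingEnd ℂ) (χ k) * χ' k = 1 := by
    have : ((starRingEnd ℂ) (χ k) * χ' k) * ⟪v, w⟫_ℂ = 1 * ⟪v, w⟫_ℂ := by
      rw [mul_assoc, h1, one_mul]
    exact mul_right_cancel₀ hne0 this
  have h4 : (starRingEnd ℂ) (χ k) * χ k = 1 := by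
    rw [mul_comm, Complex.mul_conj, Complex.normSq_eq_norm_sq, h2]; simp
  apply hk
  have h5 : χ k ≠ 0 := by
    intro h0
    rw [h0, norm_zero] at h2
    exact zero_ne_one h2
  have hc : (starRingEnd ℂ) (χ k) ≠ 0 := by simpa using h5
  exact mul_left_cancel₀ hc (h4.trans h3.symm)

theorem finite_order_semisimple {T : Module.End ℂ V} {m : ℕ} (hm : 0 < m) (hT : T ^ m = 1) :
    T.IsSemisimple := by
  have hsep : (Polynomial.X ^ m - Polynomial.C (1 : ℂ)).Separable :=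
    Polynomial.separable_X_pow_sub_C (1 : ℂ) (by exact_mod_cast hm.ne') one_ne_zero
  refine Module.End.isSemisimple_of_squarefree_aeval_eq_zero hsep.squarefree ?_
  simp [hT]

theorem wt_top [FiniteDimensional ℂ V] [Finite G] (ρ : G →* Module.End ℂ V) (K : Subgroup G)
    (hK : ∀ x ∈ K, ∀ y ∈ K, ρ x * ρ y = ρ y * ρ x) : ⨆ χ : K → ℂ, Wt ρ K χ = ⊤ := by
  have hcomm : Pairwise fun i j : K => Commute (ρ i) (ρ j) := fun i j _ => hK i i.2 j j.2
  have h := Module.End.iSup_iInf_maxGenEigenspace_eq_top_of_iSup_maxGenEigenspace_eq_top_of_commute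
    (fun k : K => ρ k) hcomm (fun k => Module.End.iSup_maxGenEigenspace_eq_top _)
  have hss : ∀ (k : K) (μ : ℂ), (ρ (k : G)).maxGenEigenspace μ = (ρ (k : G)).eigenspace μ := by
    intro k μ
    have : (ρ (k : G)).IsSemisimple := by
      refine finite_order_semisimple (m := Nat.card G) Nat.card_pos ?_
      rw [← map_pow, pow_card_eq_one', map_one]
    exact (Module.End.isFinitelySemisimple_iff_isSemisimple.mpr this).maxGenEigenspace_eq_eigenspace μ
  simpa only [hss, Wt] using h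

theorem wt_orthogonalFamily {ρ : G →* Module.End ℂ V} (hiso : ∀ g v, ‖ρ g v‖ = ‖v‖)
    (K : Subgroup G) : OrthogonalFamily ℂ (fun χ : K → ℂ => Wt ρ K χ)
      (fun χ : K → ℂ => (Wt ρ K χ).subtypeₗᵢ) := by
  intro χ χ' hne v w
  exact wt_orth hiso hne v.2 w.2

/-- The weights occurring. -/
abbrev Wts (ρ : G →* Module.End ℂ V) (K : Subgroup G) : Type _ := {χ : K → ℂ // Wt ρ K χ ≠ ⊥}

theorem wts_finite [FiniteDimensional ℂ V] {ρ : G →* Module.End ℂ V}
    (hiso : ∀ g v, ‖ρ g v‖ = ‖v‖) (K : Subgroup G) : Finite (Wts ρ K) :=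
  (WellFoundedGT.finite_ne_bot_of_iSupIndep (wt_orthogonalFamily hiso K).independent).to_subtype

theorem wts_card_le [FiniteDimensional ℂ V] {ρ : G →* Module.End ℂ V}
    (hiso : ∀ g v, ‖ρ g v‖ = ‖v‖) (K : Subgroup G) :
    Nat.card (Wts ρ K) ≤ Module.finrank ℂ V := by
  haveI := wts_finite hiso K
  letI : Fintype (Wts ρ K) := Fintype.ofFinite _
  rw [Nat.card_eq_fintype_card]
  exact (wt_orthogonalFamily hiso K).independent.subtype_ne_bot_le_finrank

theorem wts_iSup [FiniteDimensional ℂ V] [Finite G] (ρ : G →* Module.End ℂ V) (K : Subgroup G)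
    (hK : ∀ x ∈ K, ∀ y ∈ K, ρ x * ρ y = ρ y * ρ x) : ⨆ l : Wts ρ K, Wt ρ K l.1 = ⊤ := by
  rw [← wt_top ρ K hK]
  exact iSup_ne_bot_subtype (fun χ => Wt ρ K χ)

theorem exists_decomp [FiniteDimensional ℂ V] [Finite G] (ρ : G →* Module.End ℂ V)
    (K : Subgroup G) (hK : ∀ x ∈ K, ∀ y ∈ K, ρ x * ρ y = ρ y * ρ x) [Fintype (Wts ρ K)] (v : V) :
    ∃ c : Wts ρ K → V, (∀ l, c l ∈ Wt ρ K l.1) ∧ ∑ l, c l = v := by
  classical
  have hv : v ∈ ⨆ l : Wts ρ K, Wt ρ K l.1 := by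
    rw [wts_iSup ρ K hK]; exact Submodule.mem_top
  induction hv using Submodule.iSup_induction' with
  | mem l x hx =>
    refine ⟨Pi.single l x, fun l' => ?_, ?_⟩
    · by_cases h : l' = l
      · subst h; simpa using hx
      · simp [Pi.single_eq_of_ne h]
    · simp
  | zero => exact ⟨0, fun l => Submodule.zero_mem _, by simp⟩
  | add x y _ _ hx hy =>
    obtain ⟨c, hc, rfl⟩ := hx
    obtain ⟨c', hc', rfl⟩ := hy
    exact ⟨c + c', fun l => Submodule.add_mem _ (hc l) (hc' l), by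
      simp [Finset.sum_add_distrib]⟩

theorem norm_sq_sum_wts {ρ : G →* Module.End ℂ V} (hiso : ∀ g v, ‖ρ g v‖ = ‖v‖) (K : Subgroup G)
    [Fintype (Wts ρ K)] (c : Wts ρ K → V) (hc : ∀ l, c l ∈ Wt ρ K l.1) :
    ‖∑ l, c l‖ ^ 2 = ∑ l, ‖c l‖ ^ 2 := by
  classical
  have hfam : OrthogonalFamily ℂ (fun l : Wts ρ K => Wt ρ K l.1)
      (fun l : Wts ρ K => (Wt ρ K l.1).subtypeₗᵢ) :=
    (wt_orthogonalFamily hiso K).comp Subtype.val_injective
  have := hfam.norm_sum (fun l => ⟨c l, hc l⟩) Finset.univ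
  simpa using this

/-- An element all of whose weights are within `r` of `a` acts within `r` of `a`. -/
theorem near_of_weights [FiniteDimensional ℂ V] [Finite G] {ρ : G →* Module.End ℂ V}
    (hiso : ∀ g v, ‖ρ g v‖ = ‖v‖) (K : Subgroup G)
    (hK : ∀ x ∈ K, ∀ y ∈ K, ρ x * ρ y = ρ y * ρ x) (x : K) (a : ℂ) {r : ℝ} (hr : 0 ≤ r)
    (h : ∀ l : Wts ρ K, ‖l.1 x - a‖ ≤ r) : Near ρ (x : G) a r := by
  classical
  haveI := wts_finite hiso K
  letI : Fintype (Wts ρ K) := Fintype.ofFinite _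
  intro v
  obtain ⟨c, hc, rfl⟩ := exists_decomp ρ K hK v
  have e : ρ (x : G) (∑ l, c l) - a • (∑ l, c l) = ∑ l, (l.1 x - a) • c l := by
    rw [map_sum, Finset.smul_sum, ← Finset.sum_sub_distrib]
    refine Finset.sum_congr rfl fun l _ => ?_
    rw [mem_Wt.mp (hc l) x, sub_smul]
  rw [e]
  have hc' : ∀ l, (l.1 x - a) • c l ∈ Wt ρ K l.1 := fun l => Submodule.smul_mem _ _ (hc l)
  have h1 := norm_sq_sum_wts hiso K _ hc'
  have h2 := norm_sq_sum_wts hiso K c hc
  have h3 : ‖∑ l, (l.1 x - a) • c l‖ ^ 2 ≤ (r * ‖∑ l, c l‖) ^ 2 := by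
    rw [h1, mul_pow, h2, Finset.mul_sum]
    refine Finset.sum_le_sum fun l _ => ?_
    rw [norm_smul, mul_pow]
    refine mul_le_mul_of_nonneg_right ?_ (by positivity)
    exact pow_le_pow_left₀ (norm_nonneg _) (h l) 2
  exact le_of_sq_le_sq h3 (by positivity)

/-- Weights are multiplicative. -/
theorem weight_mul {ρ : G →* Module.End ℂ V} {K : Subgroup G} (l : Wts ρ K) (x y : K) :
    l.1 (x * y) = l.1 x * l.1 y := by
  obtain ⟨v, hv, hv0⟩ := (Submodule.ne_bot_iff _).mp l.2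
  have h1 := mem_Wt.mp hv (x * y)
  have h2 : ρ ((x * y : K) : G) v = (l.1 x * l.1 y) • v := by
    rw [Subgroup.coe_mul, rho_mul_apply, mem_Wt.mp hv y, map_smul, mem_Wt.mp hv x, smul_smul,
      mul_comm]
  rw [h2] at h1
  have h3 : (l.1 x * l.1 y - l.1 (x * y)) • v = 0 := by
    rw [sub_smul, h1, sub_self]
  rcases smul_eq_zero.mp h3 with h4 | h4
  · exact (sub_eq_zero.mp h4).symm
  · exact absurd h4 hv0

theorem weight_norm {ρ : G →* Module.End ℂ V} (hiso : ∀ g v, ‖ρ g v‖ = ‖v‖) {K : Subgroup G}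
    (l : Wts ρ K) (x : K) : ‖l.1 x‖ = 1 := by
  obtain ⟨v, hv, hv0⟩ := (Submodule.ne_bot_iff _).mp l.2
  exact norm_weight hiso hv hv0 x

/-- The cell of a complex number: which of twelve arcs its argument lies in. -/
noncomputable def cell (z : ℂ) : Fin 12 :=
  ⟨⌈(Complex.arg z + Real.pi) * 6 / Real.pi⌉₊ - 1, by
    have hpi := Real.pi_pos
    have h1 : (Complex.arg z + Real.pi) * 6 / Real.pi ≤ (12 : ℕ) := by
      rw [div_le_iff₀ hpi]
      have := Complex.arg_le_pi z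
      push_cast
      nlinarith
    have h2 : 0 < (Complex.arg z + Real.pi) * 6 / Real.pi := by
      have := Complex.neg_pi_lt_arg z
      apply div_pos _ hpi
      nlinarith
    have h3 := Nat.ceil_le.mpr h1
    have h4 : 0 < ⌈(Complex.arg z + Real.pi) * 6 / Real.pi⌉₊ := Nat.ceil_pos.mpr h2
    omega⟩

theorem arg_close_of_cell {z z' : ℂ} (h : cell z = cell z') :
    |Complex.arg z - Complex.arg z'| < Real.pi / 6 := by
  have hpi := Real.pi_pos
  have hv := congrArg Fin.val h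
  simp only [cell] at hv
  set x := (Complex.arg z + Real.pi) * 6 / Real.pi with hx
  set y := (Complex.arg z' + Real.pi) * 6 / Real.pi with hy
  have h2x : 0 < x := by
    have := Complex.neg_pi_lt_arg z
    apply div_pos _ hpi
    nlinarith
  have h2y : 0 < y := by
    have := Complex.neg_pi_lt_arg z'
    apply div_pos _ hpi
    nlinarith
  have hcx : 0 < ⌈x⌉₊ := Nat.ceil_pos.mpr h2x
  have hcy : 0 < ⌈y⌉₊ := Nat.ceil_pos.mpr h2y
  have heq : ⌈x⌉₊ = ⌈y⌉₊ := by omega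
  have h1x : x ≤ ⌈x⌉₊ := Nat.le_ceil x
  have h1y : y ≤ ⌈y⌉₊ := Nat.le_ceil y
  have h3x : (⌈x⌉₊ : ℝ) < x + 1 := Nat.ceil_lt_add_one h2x.le
  have h3y : (⌈y⌉₊ : ℝ) < y + 1 := Nat.ceil_lt_add_one h2y.le
  rw [heq] at h1x h3x
  have hd : |x - y| < 1 := by
    rw [abs_lt]
    constructor <;> linarith
  have hxy : x - y = (Complex.arg z - Complex.arg z') * 6 / Real.pi := by
    rw [hx, hy]; field_simp; ring
  rw [hxy, abs_div, abs_of_pos hpi, abs_mul, div_lt_one hpi] at hd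
  have h6 : |(6 : ℝ)| = 6 := by norm_num
  rw [h6] at hd
  linarith

/-- Two unit complex numbers in the same cell have their quotient within `1/2` of `√3/2`. -/
theorem near_of_cell {z z' : ℂ} (hz : ‖z‖ = 1) (hz' : ‖z'‖ = 1) (h : cell z = cell z') :
    ‖z * (starRingEnd ℂ) z' - ((Real.sqrt 3 / 2 : ℝ) : ℂ)‖ < 1 / 2 := by
  have hclose := arg_close_of_cell h
  set α := Complex.arg z with hα
  set β := Complex.arg z' with hβ
  have hzα : z = Complex.exp (α * Complex.I) := by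
    have := Complex.norm_mul_exp_arg_mul_I z
    rw [hz] at this
    simpa using this.symm
  have hzβ : z' = Complex.exp (β * Complex.I) := by
    have := Complex.norm_mul_exp_arg_mul_I z'
    rw [hz'] at this
    simpa using this.symm
  have hu : z * (starRingEnd ℂ) z' = Complex.exp (((α - β : ℝ) : ℂ) * Complex.I) := by
    rw [hzα, hzβ, ← Complex.exp_conj, ← Complex.exp_add]
    congr 1
    simp only [map_mul, Complex.conj_ofReal, Complex.conj_I]
    push_cast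
    ring
  rw [hu]
  have hcos : Real.sqrt 3 / 2 < Real.cos (α - β) := by
    rw [← Real.cos_pi_div_six, ← Real.cos_abs (α - β)]
    apply Real.cos_lt_cos_of_nonneg_of_le_pi (abs_nonneg _)
    · linarith [Real.pi_pos]
    · exact hclose
  have h3 : Real.sqrt 3 * Real.sqrt 3 = 3 := Real.mul_self_sqrt (by norm_num)
  have hs0 : 0 < Real.sqrt 3 := Real.sqrt_pos.mpr (by norm_num)
  have hsq : ‖Complex.exp (((α - β : ℝ) : ℂ) * Complex.I) - ((Real.sqrt 3 / 2 : ℝ) : ℂ)‖ ^ 2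
      < (1 / 2) ^ 2 := by
    rw [← Complex.normSq_eq_norm_sq, Complex.normSq_apply]
    simp only [Complex.sub_re, Complex.sub_im, Complex.exp_ofReal_mul_I_re,
      Complex.exp_ofReal_mul_I_im, Complex.ofReal_re, Complex.ofReal_im]
    have hc := Real.sin_sq_add_cos_sq (α - β)
    nlinarith
  exact lt_of_pow_lt_pow_left₀ 2 (by norm_num) hsq

end Cfsg.Agent.Lib.Blichfeldt
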